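import Cfsg.Agent.Lib.Ind.KGood

/-! Square roots of Knörr's character for modules with an invariant quadratic form. -/

set_option autoImplicit false

namespace Cfsg.Agent.Ind

open Cfsg Cfsg.Agent.Char Cfsg.Agent.Block Module
open scoped ComplexConjugate

section lin
variable {F V : Type*} [Field F] [AddCommGroup V] [Module F V]

theorem isCompl_ker_range_sub_one [FiniteDimensional F V] (f : Module.End F V) {n : ℕ}
    (hf : f ^ n = 1) (hn : (n : F) ≠ 0) :
    IsCompl (LinearMap.ker (f - 1)) (LinearMap.range (f - 1)) := by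
  rw [Submodule.isCompl_iff_disjoint _ _
    (by rw [add_comm, LinearMap.finrank_range_add_finrank_ker]), Submodule.disjoint_def]
  rintro x hx ⟨u, rfl⟩
  rw [LinearMap.mem_ker, LinearMap.sub_apply, Module.End.one_apply, sub_eq_zero] at hx
  have key : ∀ k : ℕ, (f ^ k) u = u + (k : F) • (f - 1) u := by
    intro k
    induction k with
    | zero => simp
    | succ k ih =>
      rw [pow_succ', Module.End.mul_apply, ih, map_add, map_smul, hx]
      simp only [LinearMap.sub_apply, Module.End.one_apply, Nat.cast_succ, add_smul, one_smul]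
      abel
  have := key n
  rw [hf, Module.End.one_apply, left_eq_add, smul_eq_zero] at this
  exact this.resolve_left hn

theorem sum_eq_sum_sum_of_isCompl [Fintype V] {C R : Submodule F V} [Fintype C] [Fintype R]
    (h : IsCompl C R) {β : Type*} [AddCommMonoid β] (f : V → β) :
    ∑ v, f v = ∑ c : C, ∑ r : R, f (c + r) := by
  rw [← Fintype.sum_prod_type']
  exact ((Submodule.prodEquivOfIsCompl C R h).toEquiv.sum_comp f).symm

theorem card_eq_mul_of_isCompl {C R : Submodule F V} (h : IsCompl C R) :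
    Nat.card V = Nat.card C * Nat.card R := by
  rw [← Nat.card_prod]
  exact Nat.card_congr (Submodule.prodEquivOfIsCompl _ _ h).symm.toEquiv

variable {H : Type*} [Group H] (ρ : Representation F H V)

/-- fixed space -/
abbrev fixSp (h : H) : Submodule F V := LinearMap.ker (ρ h - 1)

/-- commutator space -/
abbrev comSp (h : H) : Submodule F V := LinearMap.range (ρ h - 1)

theorem mem_fixSp {h : H} {v : V} : v ∈ fixSp ρ h ↔ ρ h v = v := by
  rw [LinearMap.mem_ker, LinearMap.sub_apply, Module.End.one_apply, sub_eq_zero]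

theorem card_fixSp (h : H) : Nat.card (fixSp ρ h) = Nat.card {v // ρ h v = v} :=
  Nat.card_congr (Equiv.subtypeEquivRight fun _ => mem_fixSp ρ)

theorem isCompl_fixSp [Finite H] [FiniteDimensional F V] (hH : (Nat.card H : F) ≠ 0) (h : H) :
    IsCompl (fixSp ρ h) (comSp ρ h) :=
  isCompl_ker_range_sub_one (ρ h) (by rw [← map_pow, pow_card_eq_one', map_one]) hH

theorem InvForm.fix_com {B : LinearMap.BilinForm F V} (hB : InvForm ρ B) {h : H} {c r : V}
    (hc : c ∈ fixSp ρ h) (hr : r ∈ comSp ρ h) : B c r = 0 := by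
  obtain ⟨u, rfl⟩ := hr
  rw [mem_fixSp] at hc
  rw [LinearMap.sub_apply, map_sub, Module.End.one_apply, sub_eq_zero, ← hB h c u, hc]

theorem InvForm.com_fix {B : LinearMap.BilinForm F V} (hB : InvForm ρ B) {h : H} {c r : V}
    (hc : c ∈ fixSp ρ h) (hr : r ∈ comSp ρ h) : B r c = 0 := by
  obtain ⟨u, rfl⟩ := hr
  rw [mem_fixSp] at hc
  rw [LinearMap.sub_apply, map_sub, Module.End.one_apply, LinearMap.sub_apply, sub_eq_zero,
    ← hB h u c, hc]

theorem isChar_card_fix_subtype [Finite V] (P : V → Prop) (hP : ∀ h v, P v → P (ρ h v)) :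
    IsCharacter H (fun h => (Nat.card {v // P v ∧ ρ h v = v} : ℂ)) := by
  letI : MulAction H {v // P v} :=
    { smul := fun h v => ⟨ρ h v, hP h v v.2⟩
      one_smul := fun v => Subtype.ext (by show ρ 1 v = v; simp)
      mul_smul := fun a b v => Subtype.ext (by show ρ (a * b) v = ρ a (ρ b v); simp) }
  convert isChar_fixedBy (G := H) {v // P v} using 2 with h
  congr 1
  exact Nat.card_congr
    { toFun := fun v => ⟨⟨v, v.2.1⟩, Subtype.ext v.2.2⟩
      invFun := fun v => ⟨v.1.1, v.1.2, congrArg Subtype.val v.2⟩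
      left_inv := fun _ => rfl
      right_inv := fun _ => rfl }

theorem isChar_card_fixSp [Finite V] : IsCharacter H (fun h => (Nat.card (fixSp ρ h) : ℂ)) := by
  convert isChar_card_fix_subtype ρ (fun _ => True) (fun _ _ _ => trivial) using 3 with h
  exact Nat.card_congr (Equiv.subtypeEquivRight fun _ => by simp [sub_eq_zero])

end lin

variable {p : ℕ} [hp : Fact p.Prime] {M : Ideal AlgInt} [M.IsMaximal] [CharP (Res M) p]
  {H : Type*} [Group H] [Finite H] {V : Type*} [AddCommGroup V] [Module (ZMod p) V]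

theorem card_eq_pow_zmod [Finite V] : Nat.card V = p ^ finrank (ZMod p) V := by
  rw [Module.natCard_eq_pow_finrank (K := ZMod p), Nat.card_zmod]

theorem dvd_card_of_nontrivial [Finite V] [Nontrivial V] : p ∣ Nat.card V := by
  rw [card_eq_pow_zmod (p := p)]
  exact dvd_pow_self p Module.finrank_pos.ne'

omit [CharP (Res M) p] in
theorem kgood_of_div [Finite V] (ρ : Representation (ZMod p) H V) (hH : ¬ p ∣ Nat.card H)
    {γ θ : H → ℂ} (hθ : IntComb θ) (h1 : ∀ h, γ h * Nat.card (fixSp ρ h) = θ h)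
    (hint : ∀ h, IsIntegral ℤ (γ h)) (hcm : ∀ h, CM (γ h))
    (hnorm : ∀ h, γ h * conj (γ h) * Nat.card (fixSp ρ h) = Nat.card V)
    (hone : γ 1 = 1) (hmem : ∀ h, (∃ v, ρ h v ≠ v) → γ h ∈ locIdeal M) : KGood M ρ γ := by
  refine ⟨?_, fun τ h => ?_, hone, hmem⟩
  · have hπ := intComb_of_isChar (isChar_card_fixSp ρ)
    obtain ⟨m, hm⟩ := intComb_inv_of_pow hπ p (finrank (ZMod p) V) hp.out.ne_zero fun h =>
      ⟨_, Submodule.finrank_le _, by rw [card_eq_pow_zmod (p := p)]; push_cast; rfl⟩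
    have h0 : ∀ h, (Nat.card (fixSp ρ h) : ℂ) ≠ 0 := fun h => Nat.cast_ne_zero.2 Nat.card_pos.ne'
    have h2 : ∀ h, γ h = θ h / Nat.card (fixSp ρ h) := fun h => by rw [← h1, mul_div_cancel_right₀ _ (h0 h)]
    refine intComb_of_coprime (n := p ^ m)
      (((Nat.Prime.coprime_iff_not_dvd hp.out).2 hH).pow_left m) ?_ hint fun a b => ?_
    · convert hθ.mul hm using 1
      ext h
      simp only [Pi.smul_apply, smul_eq_mul, Pi.mul_apply, h2]
      push_cast; ring
    · rw [h2, h2, hθ.cf a b]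
      exact congrArg _ (hπ.cf a b)
  · rw [← card_fixSp]
    exact ((hcm h).norm_sq (hnorm h) τ).le

theorem sum_stdAddChar_dual [Fintype V] (ℓ : V →ₗ[ZMod p] ZMod p) [Decidable (ℓ = 0)] :
    ∑ w, ZMod.stdAddChar (ℓ w) = if ℓ = 0 then (Nat.card V : ℂ) else 0 := by
  split_ifs with h
  · simp [h]
  · refine (AddChar.sum_eq_zero_iff_ne_zero
      (ψ := ZMod.stdAddChar.compAddMonoidHom ℓ.toAddMonoidHom)).2 fun h0 => h ?_
    ext w
    exact stdAddChar_eq_one.1 (DFunLike.congr_fun h0 w)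

theorem normSq_quadSum (Q : V → ZMod p) (b : LinearMap.BilinForm (ZMod p) V)
    (hQ : ∀ x y, Q (x + y) = Q x + Q y + b x y) (W : Submodule (ZMod p) V) [Fintype W]
    (hW : ∀ y ∈ W, (∀ x ∈ W, b x y = 0) → y = 0) :
    (∑ w : W, ZMod.stdAddChar (Q w)) * conj (∑ w : W, ZMod.stdAddChar (Q w)) = Nat.card W := by
  classical
  have hQ0 : Q 0 = 0 := by simpa using hQ 0 0
  rw [map_sum, Finset.mul_sum]
  have e1 : ∀ w : W, (∑ x : W, ZMod.stdAddChar (Q x)) * conj (ZMod.stdAddChar (Q w)) =
      ∑ d : W, ZMod.stdAddChar (Q d) * ZMod.stdAddChar (b w d) := by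
    intro w
    rw [← Equiv.sum_comp (Equiv.addLeft w), Finset.sum_mul]
    refine Finset.sum_congr rfl fun d _ => ?_
    rw [conj_stdAddChar, ← AddChar.map_add_eq_mul, ← AddChar.map_add_eq_mul]
    simp only [Equiv.coe_addLeft, Submodule.coe_add, hQ]
    congr 1; ring
  simp only [e1]
  rw [Finset.sum_comm, Finset.sum_eq_single 0]
  · simp [hQ0]
  · intro d _ hd
    rw [← Finset.mul_sum]
    have := sum_stdAddChar_dual ((b.flip d).domRestrict W)
    rw [if_neg fun h => hd (Subtype.ext (hW d d.2 fun x hx => LinearMap.congr_fun h ⟨x, hx⟩))]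
      at this
    exact mul_eq_zero_of_right _ this
  · simp

theorem hasGood_of_quad [Finite V] (ρ : Representation (ZMod p) H V) (hH : ¬ p ∣ Nat.card H)
    (Q : V → ZMod p) (b : LinearMap.BilinForm (ZMod p) V)
    (hQ : ∀ x y, Q (x + y) = Q x + Q y + b x y) (hQi : ∀ h x, Q (ρ h x) = Q x)
    (hb : ∀ y, (∀ x, b x y = 0) → y = 0) : HasGood M ρ := by
  classical
  haveI := Fintype.ofFinite V
  have hbi : InvForm ρ b := fun h x y => by
    have h1 := hQ (ρ h x) (ρ h y)
    rw [← map_add, hQi, hQi, hQi, hQ] at h1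
    exact (add_left_cancel h1).symm
  have hc := isCompl_fixSp ρ (fun h => hH ((CharP.cast_eq_zero_iff _ p _).1 h))
  have hdec : ∀ h x, ∃ c ∈ fixSp ρ h, ∃ r ∈ comSp ρ h, c + r = x := fun h x =>
    Submodule.mem_sup.1 ((hc h).sup_eq_top ▸ Submodule.mem_top (x := x))
  have nC := fun h => normSq_quadSum Q b hQ (fixSp ρ h) fun y hy hy' => hb y fun x => by
    obtain ⟨c, hc, r, hr, rfl⟩ := hdec h x
    rw [map_add, LinearMap.add_apply, hy' c hc, hbi.com_fix ρ hy hr, add_zero]
  have nR := fun h => normSq_quadSum Q b hQ (comSp ρ h) fun y hy hy' => hb y fun x => by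
    obtain ⟨c, hc, r, hr, rfl⟩ := hdec h x
    rw [map_add, LinearMap.add_apply, hy' r hr, hbi.fix_com ρ hc hy, add_zero]
  have hsplit : ∀ h, ∑ v, ZMod.stdAddChar (Q v) =
      (∑ w : fixSp ρ h, ZMod.stdAddChar (Q w)) * ∑ w : comSp ρ h, ZMod.stdAddChar (Q w) := by
    intro h
    rw [sum_eq_sum_sum_of_isCompl (hc h), Finset.sum_mul_sum]
    refine Finset.sum_congr rfl fun c _ => Finset.sum_congr rfl fun r _ => ?_
    rw [hQ, hbi.fix_com ρ c.2 r.2, add_zero, AddChar.map_add_eq_mul]
  have hθ : IntComb fun h => ∑ w : fixSp ρ h, ZMod.stdAddChar (Q w) := by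
    have : (fun h => ∑ w : fixSp ρ h, ZMod.stdAddChar (Q w)) = ∑ c : ZMod p,
        ZMod.stdAddChar c • fun h => (Nat.card {v // Q v = c ∧ ρ h v = v} : ℂ) := by
      ext h
      rw [Finset.sum_apply, ← Finset.sum_fiberwise (g := fun w : fixSp ρ h => Q w)]
      refine Finset.sum_congr rfl fun c _ => ?_
      rw [Finset.sum_congr rfl (g := fun _ => ZMod.stdAddChar c) fun w hw => by
        rw [(Finset.mem_filter.1 hw).2], Finset.sum_const, nsmul_eq_mul, mul_comm,
        Pi.smul_apply, smul_eq_mul, ← Fintype.card_subtype, ← Nat.card_eq_fintype_card]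
      congr 2
      exact Nat.card_congr
        { toFun := fun v => ⟨v.1.1, v.2, (mem_fixSp ρ).1 v.1.2⟩
          invFun := fun v => ⟨⟨v.1, (mem_fixSp ρ).2 v.2.2⟩, v.2.1⟩
          left_inv := fun _ => rfl
          right_inv := fun _ => rfl }
    rw [this]
    exact intComb_sum _ fun c _ => (intComb_of_isChar (isChar_card_fix_subtype ρ (fun v => Q v = c)
      fun h v hv => (hQi h v).trans hv)).smul (isIntegral_stdAddChar c)
  have hint : ∀ h, IsIntegral ℤ (∑ w : comSp ρ h, ZMod.stdAddChar (Q w)) := fun h =>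
    IsIntegral.sum _ fun w _ => isIntegral_stdAddChar _
  refine ⟨fun h => ∑ w : comSp ρ h, ZMod.stdAddChar (Q w), kgood_of_div ρ hH
    (hθ.conj.smul (a := ∑ v, ZMod.stdAddChar (Q v))
      (IsIntegral.sum _ fun w _ => isIntegral_stdAddChar _)) (fun h => ?_) hint
    (fun h => cm_sum _ fun w _ => cm_stdAddChar _) (fun h => ?_) ?_ fun h ⟨v, hv⟩ => ?_⟩
  · rw [Pi.smul_apply, smul_eq_mul, hsplit h, ← nC h]; ring
  · rw [nR h, card_eq_mul_of_isCompl (hc h)]; push_cast; ring
  · have hQ0 : Q 0 = 0 := by simpa using hQ 0 0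
    rw [Finset.sum_eq_single 0]
    · simp [hQ0]
    · rintro ⟨_, u, rfl⟩ _ hd
      exact absurd (Subtype.ext (by simp)) hd
    · simp
  · rw [← red_eq_zero_iff (mem_locRing_of_isIntegral (hint h)), red_sum _ _ fun w _ =>
      mem_locRing_of_isIntegral (isIntegral_stdAddChar _)]
    simp only [red_stdAddChar, Finset.sum_const, nsmul_eq_mul, mul_one, Finset.card_univ]
    haveI : Nontrivial (comSp ρ h) := ⟨⟨_, v, rfl⟩, 0, fun h0 => hv (by
      simpa [sub_eq_zero] using congrArg Subtype.val h0)⟩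
    rw [CharP.cast_eq_zero_iff _ p, ← Nat.card_eq_fintype_card]
    exact dvd_card_of_nontrivial

end Cfsg.Agent.Ind
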