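import Mathlib

/-!
# Subgroups equal to the centralizer of each non-identity element
-/

set_option autoImplicit false

namespace Cfsg.Agent.Ind

variable {G : Type*} [Group G]

theorem centralizer_conj_mem (x g y : G) :
    y ∈ Subgroup.centralizer ({g * x * g⁻¹} : Set G) ↔
      g⁻¹ * y * g ∈ Subgroup.centralizer ({x} : Set G) := by
  simp only [Subgroup.mem_centralizer_singleton_iff]
  constructor
  · intro h
    calc g⁻¹ * y * g * x = g⁻¹ * (y * (g * x * g⁻¹)) * g := by group
      _ = g⁻¹ * ((g * x * g⁻¹) * y) * g := by rw [h]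
      _ = x * (g⁻¹ * y * g) := by group
  · intro h
    calc y * (g * x * g⁻¹) = g * (g⁻¹ * y * g * x) * g⁻¹ := by group
      _ = g * (x * (g⁻¹ * y * g)) * g⁻¹ := by rw [h]
      _ = g * x * g⁻¹ * y := by group

theorem selfCent_ti (A : Subgroup G)
    (hA : ∀ x ∈ A, x ≠ 1 → Subgroup.centralizer ({x} : Set G) = A) (g : G)
    (hg : g ∉ Subgroup.normalizer (A : Set G)) (x : G) (hx : x ∈ A) (hgx : g * x * g⁻¹ ∈ A) :
    x = 1 := by
  by_contra h1
  apply hg
  have h2 : g * x * g⁻¹ ≠ 1 := by
    intro h
    apply h1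
    have : x = g⁻¹ * (g * x * g⁻¹) * g := by group
    rw [this, h]; group
  have h3 := hA _ hgx h2
  have h4 := hA _ hx h1
  rw [Subgroup.mem_normalizer_iff'']
  intro y
  constructor
  · intro hy
    rw [← h4, ← centralizer_conj_mem, h3]
    exact hy
  · intro hy
    rw [← h3, centralizer_conj_mem, h4]
    exact hy

/-- If a finite group `K` acts on a finite type `X` with all point stabilizers of order `m`,
then `|K|` divides `m * |X|`, in the precise form `|K| * #orbits = m * |X|`. -/
theorem card_mul_orbits_of_stabilizer_card {K X : Type*} [Group K] [Finite K] [Finite X]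
    [MulAction K X] (m : ℕ) (h : ∀ x : X, Nat.card (MulAction.stabilizer K x) = m) :
    Nat.card K * Nat.card (MulAction.orbitRel.Quotient K X) = m * Nat.card X := by
  classical
  have := Fintype.ofFinite X
  have := Fintype.ofFinite (MulAction.orbitRel.Quotient K X)
  have e := MulAction.selfEquivSigmaOrbits K X
  rw [Nat.card_congr e, Nat.card_sigma, Finset.mul_sum, Nat.card_eq_fintype_card (α := MulAction.orbitRel.Quotient K X),
    ← Finset.card_univ, mul_comm, ← smul_eq_mul, ← Finset.sum_const]
  refine Finset.sum_congr rfl fun ω _ => ?_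
  rw [← h ω.out, mul_comm, ← Nat.card_prod]
  exact (Nat.card_congr (MulAction.orbitProdStabilizerEquivGroup K ω.out)).symm

theorem selfCent_index_dvd [Finite G] (A : Subgroup G)
    (hA : ∀ x ∈ A, x ≠ 1 → Subgroup.centralizer ({x} : Set G) = A) :
    (A.subgroupOf (Subgroup.normalizer (A : Set G))).index ∣ Nat.card A - 1 := by
  classical
  set N := Subgroup.normalizer (A : Set G)
  let X := {a : G // a ∈ A ∧ a ≠ 1}
  letI : MulAction N X :=
    { smul := fun n a => ⟨n * a * (n : G)⁻¹, (Subgroup.mem_normalizer_iff.mp n.2 a).mp a.2.1,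
        fun h => a.2.2 (by
          have : (a : G) = (n : G)⁻¹ * (n * a * (n : G)⁻¹) * n := by group
          rw [this, h]; group)⟩
      one_smul := fun a => Subtype.ext (by change (1 : G) * a * 1⁻¹ = a; simp)
      mul_smul := fun m n a => Subtype.ext (by
        change ((m : G) * n) * a * ((m : G) * n)⁻¹ = m * (n * a * (n : G)⁻¹) * (m : G)⁻¹
        group) }
  have hst : ∀ x : X, MulAction.stabilizer N x = A.subgroupOf N := by
    intro x
    ext n
    rw [MulAction.mem_stabilizer_iff, Subgroup.mem_subgroupOf, ← hA x x.2.1 x.2.2,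
      Subgroup.mem_centralizer_singleton_iff, Subtype.ext_iff]
    change (n : G) * x * (n : G)⁻¹ = x ↔ _
    rw [mul_inv_eq_iff_eq_mul]
  have h1 := card_mul_orbits_of_stabilizer_card (K := N) (X := X)
    (Nat.card (A.subgroupOf N)) (fun x => by rw [hst])
  have h2 : Nat.card X = Nat.card A - 1 := by
    have : Nat.card X = Nat.card {a : A // a ≠ 1} :=
      Nat.card_congr
        { toFun := fun a => ⟨⟨a.1, a.2.1⟩, fun h => a.2.2 (congrArg Subtype.val h)⟩
          invFun := fun a => ⟨a.1.1, a.1.2, fun h => a.2 (Subtype.ext h)⟩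
          left_inv := fun _ => rfl
          right_inv := fun _ => rfl }
    rw [this]
    have := Fintype.ofFinite A
    simp
  rw [← h2]
  rw [← (A.subgroupOf N).card_mul_index, mul_assoc] at h1
  exact ⟨_, (Nat.eq_of_mul_eq_mul_left Nat.card_pos h1).symm⟩

end Cfsg.Agent.Ind
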