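import Cfsg.Agent.Lib.Ind.KQuad

/-! Square roots of Knörr's character for symplectic modules in odd characteristic
(Weil characters of coprime subgroups), and for all self-dual modules. -/

set_option autoImplicit false

namespace Cfsg.Agent.Ind

open Cfsg Cfsg.Agent.Char Cfsg.Agent.Block Module
open scoped ComplexConjugate

/-- a projective representation of degree prime to the group order can be linearized -/
theorem exists_linearize {H W : Type*} [Group H] [Finite H] [AddCommGroup W] [Module ℂ W]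
    [FiniteDimensional ℂ W] [Nontrivial W] (T : H → Module.End ℂ W) (hT : ∀ h, IsUnit (T h))
    (hc : ∀ g h, ∃ c : ℂ, T g * T h = c • T (g * h))
    (hcop : (Nat.card H).Coprime (finrank ℂ W)) :
    ∃ (μ : H → ℂ) (σ : Representation ℂ H W), ∀ h, σ h = μ h • T h := by
  haveI := Fintype.ofFinite H
  choose c hc using hc
  have hc0 : ∀ g h, c g h ≠ 0 := fun g h h0 => by
    have := ((hT g).mul (hT h)).ne_zero
    rw [hc, h0, zero_smul] at this
    exact this rfl
  have hcoc : ∀ g h k, c g h * c (g * h) k = c h k * c g (h * k) := by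
    intro g h k
    have h1 := mul_assoc (T g) (T h) (T k)
    rw [hc, hc, smul_mul_assoc, mul_smul_comm, hc, hc, smul_smul, smul_smul, mul_assoc g] at h1
    exact smul_left_injective ℂ (hT _).ne_zero h1
  let d : H → ℂ := fun h => ∏ k, c h k
  have hd0 : ∀ h, d h ≠ 0 := fun h => Finset.prod_ne_zero_iff.2 fun k _ => hc0 h k
  have hd : ∀ g h, c g h ^ Nat.card H = d g * d h / d (g * h) := by
    intro g h
    rw [eq_div_iff (hd0 _), Nat.card_eq_fintype_card, ← Finset.card_univ, ← Finset.prod_const,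
      ← Finset.prod_mul_distrib]
    simp only [hcoc, Finset.prod_mul_distrib]
    rw [mul_comm]
    congr 1
    exact Equiv.prod_comp (Equiv.mulLeft h) (c g)
  have hδ0 : ∀ h, LinearMap.det (T h) ≠ 0 := fun h => ((hT h).map LinearMap.det).ne_zero
  have hδ : ∀ g h, c g h ^ finrank ℂ W =
      LinearMap.det (T g) * LinearMap.det (T h) / LinearMap.det (T (g * h)) := by
    intro g h
    rw [eq_div_iff (hδ0 _), ← map_mul, hc, LinearMap.det_smul]
  obtain ⟨u, w, huw⟩ := Nat.isCoprime_iff_coprime.2 hcop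
  let l : H → ℂ := fun h => d h ^ u * LinearMap.det (T h) ^ w
  have hl0 : ∀ h, l h ≠ 0 := fun h => mul_ne_zero (zpow_ne_zero _ (hd0 h)) (zpow_ne_zero _ (hδ0 h))
  have hl : ∀ g h, c g h = l g * l h / l (g * h) := by
    intro g h
    calc c g h = c g h ^ (u * Nat.card H + w * finrank ℂ W : ℤ) := by rw [huw, zpow_one]
      _ = (c g h ^ Nat.card H) ^ u * (c g h ^ finrank ℂ W) ^ w := by
        rw [zpow_add₀ (hc0 g h), mul_comm u, mul_comm w, zpow_mul, zpow_mul, zpow_natCast,
          zpow_natCast]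
      _ = _ := by
        simp only [hd, hδ, l, div_zpow, mul_zpow]
        rw [div_mul_div_comm, mul_mul_mul_comm]
  have hm : ∀ g h, (l (g * h))⁻¹ • T (g * h) = ((l g)⁻¹ • T g) * ((l h)⁻¹ • T h) := by
    intro g h
    rw [smul_mul_smul_comm, hc, smul_smul, hl]
    congr 1
    field_simp [hl0 g, hl0 h]
  have hone : (l 1)⁻¹ • T 1 = 1 := by
    have h1 := hm 1 1
    rw [mul_one] at h1
    have hu : IsUnit ((l 1)⁻¹ • T 1) := by
      rw [Algebra.smul_def]
      exact ((IsUnit.mk0 _ (inv_ne_zero (hl0 1))).map (algebraMap ℂ _)).mul (hT 1)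
    exact (hu.mul_eq_left.1 h1.symm)
  exact ⟨fun h => (l h)⁻¹, ⟨⟨fun h => (l h)⁻¹ • T h, hone⟩, hm⟩, fun _ => rfl⟩

variable {p : ℕ} [hp : Fact p.Prime] {V : Type*} [AddCommGroup V] [Module (ZMod p) V]

/-- Heisenberg operators -/
noncomputable def heis (a : LinearMap.BilinForm (ZMod p) V) (v : V) : Module.End ℂ (V → ℂ) where
  toFun f x := ZMod.stdAddChar (a v x) * f (x - v)
  map_add' f g := by ext x; simp [mul_add]
  map_smul' c f := by ext x; simp [mul_left_comm]

variable {a : LinearMap.BilinForm (ZMod p) V}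

theorem heis_apply (v : V) (f : V → ℂ) (x : V) :
    heis a v f x = ZMod.stdAddChar (a v x) * f (x - v) := rfl

theorem heis_zero : heis a 0 = 1 := by
  ext f x; simp [heis_apply]

theorem skew_of_alt (ha : ∀ x, a x x = 0) (x y : V) : a x y = -a y x := by
  have := ha (x + y)
  simp only [map_add, LinearMap.add_apply, ha] at this
  linear_combination this

theorem heis_mul (ha : ∀ x, a x x = 0) (v w : V) :
    heis a v * heis a w = ZMod.stdAddChar (a v w) • heis a (v + w) := by
  refine LinearMap.ext fun f => funext fun x => ?_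
  simp only [Module.End.mul_apply, heis_apply, LinearMap.smul_apply, Pi.smul_apply, smul_eq_mul,
    ← mul_assoc, ← AddChar.map_add_eq_mul, sub_sub, map_sub, map_add, LinearMap.add_apply]
  rw [skew_of_alt ha w v]
  congr 2; ring

theorem heis_mul_neg (ha : ∀ x, a x x = 0) (v : V) : heis a v * heis a (-v) = 1 := by
  rw [heis_mul ha, map_neg, ha, add_neg_cancel, heis_zero]; simp

theorem trace_heis [Fintype V] [DecidableEq V] (v : V) :
    LinearMap.trace ℂ _ (heis a v) = if v = 0 then (Nat.card V : ℂ) else 0 := by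
  split_ifs with h
  · rw [h, heis_zero, LinearMap.trace_one]; simp
  · rw [LinearMap.trace_eq_matrix_trace ℂ (Pi.basisFun ℂ V)]
    refine Finset.sum_eq_zero fun x _ => ?_
    simp [LinearMap.toMatrix_apply, heis_apply, Pi.single_apply, h]

theorem heis_mul_mem (ha : ∀ x, a x x = 0) {X Y : Module.End ℂ (V → ℂ)}
    (hX : X ∈ Submodule.span ℂ (Set.range (heis a)))
    (hY : Y ∈ Submodule.span ℂ (Set.range (heis a))) :
    X * Y ∈ Submodule.span ℂ (Set.range (heis a)) := by
  have := Submodule.mul_mem_mul hX hY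
  rw [Submodule.span_mul_span] at this
  refine Submodule.span_le.2 ?_ this
  rintro _ ⟨_, ⟨v, rfl⟩, _, ⟨w, rfl⟩, rfl⟩
  simp only [heis_mul ha]
  exact Submodule.smul_mem _ _ (Submodule.subset_span ⟨_, rfl⟩)

theorem sum_heis_conj [Fintype V] (h2 : (2 : ZMod p) ≠ 0) (ha : ∀ x, a x x = 0)
    (hnd : ∀ y, (∀ x, a x y = 0) → y = 0) {X : Module.End ℂ (V → ℂ)}
    (hX : X ∈ Submodule.span ℂ (Set.range (heis a))) :
    ∑ v, heis a v * X * heis a (-v) = LinearMap.trace ℂ _ X • (1 : Module.End ℂ (V → ℂ)) := by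
  classical
  induction hX using Submodule.span_induction with
  | mem x hx =>
    obtain ⟨y, rfl⟩ := hx
    have e1 : ∀ v, heis a v * heis a y * heis a (-v) =
        ZMod.stdAddChar (((2 : ZMod p) • a.flip y) v) • heis a y := by
      intro v
      rw [heis_mul ha, smul_mul_assoc, heis_mul ha, smul_smul, ← AddChar.map_add_eq_mul,
        add_neg_cancel_comm]
      simp only [map_neg, map_add, LinearMap.add_apply, ha, LinearMap.smul_apply,
        LinearMap.flip_apply, smul_eq_mul]
      rw [skew_of_alt ha y v, show a.flip y v = a v y from rfl]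
      congr 2; ring
    simp only [e1]
    rw [← Finset.sum_smul, sum_stdAddChar_dual, trace_heis]
    by_cases hy : y = 0
    · simp [hy, heis_zero]
    · rw [if_neg hy, if_neg, zero_smul, zero_smul]
      intro h
      exact hy (hnd y fun x => by simpa [h2] using LinearMap.congr_fun h x)
  | zero => simp
  | add x y _ _ hx hy => simp [mul_add, add_mul, Finset.sum_add_distrib, hx, hy, add_smul]
  | smul c x _ hx => simp [← Finset.smul_sum, hx, mul_smul]

variable {H : Type*} [Group H] (ρ : Representation (ZMod p) H V)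

variable (a) in
/-- intertwining operators -/
noncomputable def weilT [Fintype V] (h : H) : Module.End ℂ (V → ℂ) :=
  ∑ u, heis a (ρ h u) * heis a (-u)

variable [Fintype V]

theorem weilT_eq (ha : ∀ x, a x x = 0) (h : H) :
    weilT a ρ h = ∑ u, ZMod.stdAddChar (-a (ρ h u) u) • heis a (ρ h u - u) := by
  simp [weilT, heis_mul ha, sub_eq_add_neg]

theorem weilT_mem (ha : ∀ x, a x x = 0) (h : H) :
    weilT a ρ h ∈ Submodule.span ℂ (Set.range (heis a)) := by
  rw [weilT_eq ρ ha]
  exact Submodule.sum_mem _ fun u _ => Submodule.smul_mem _ _ (Submodule.subset_span ⟨_, rfl⟩)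

theorem heis_mul_weilT (ha : ∀ x, a x x = 0) (hi : InvForm ρ a) (h : H) (w : V) :
    heis a (ρ h w) * weilT a ρ h = weilT a ρ h * heis a w := by
  rw [weilT, Finset.mul_sum, Finset.sum_mul, ← Equiv.sum_comp (Equiv.addLeft w)
    (fun u => heis a (ρ h u) * heis a (-u) * heis a w)]
  refine Finset.sum_congr rfl fun u _ => ?_
  rw [← mul_assoc, heis_mul ha, hi, mul_assoc, heis_mul ha (-_), smul_mul_assoc, mul_smul_comm]
  simp only [Equiv.coe_addLeft, map_add, map_neg, LinearMap.neg_apply, LinearMap.add_apply, ha,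
    zero_add, ← skew_of_alt ha w u]
  congr 3; abel

theorem trace_weilT (ha : ∀ x, a x x = 0) (h : H) :
    LinearMap.trace ℂ _ (weilT a ρ h) = Nat.card V * Nat.card (fixSp ρ h) := by
  classical
  rw [weilT_eq ρ ha, map_sum]
  simp only [map_smul, trace_heis, smul_eq_mul, mul_ite, mul_zero]
  rw [← Finset.sum_filter, Finset.sum_congr rfl (g := fun _ => (Nat.card V : ℂ)) fun u hu => by
    rw [sub_eq_zero.1 (Finset.mem_filter.1 hu).2, ha]; simp]
  rw [Finset.sum_const, nsmul_eq_mul, mul_comm, ← Fintype.card_subtype, ← Nat.card_eq_fintype_card]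
  rfl

theorem weilT_mul_inv (h2 : (2 : ZMod p) ≠ 0) (ha : ∀ x, a x x = 0)
    (hnd : ∀ y, (∀ x, a x y = 0) → y = 0) (hi : InvForm ρ a) (h : H) :
    weilT a ρ h * weilT a ρ h⁻¹ =
      ((Nat.card V : ℂ) * Nat.card (fixSp ρ h)) • (1 : Module.End ℂ (V → ℂ)) := by
  rw [← trace_weilT ρ ha, ← sum_heis_conj h2 ha hnd (weilT_mem ρ ha h)]
  conv_lhs => rw [weilT.eq_def a ρ h⁻¹, Finset.mul_sum]
  refine Finset.sum_congr rfl fun u _ => ?_
  rw [← mul_assoc, ← heis_mul_weilT ρ ha hi, rep_inv_apply]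

theorem isUnit_weilT (h2 : (2 : ZMod p) ≠ 0) (ha : ∀ x, a x x = 0)
    (hnd : ∀ y, (∀ x, a x y = 0) → y = 0) (hi : InvForm ρ a) (h : H) : IsUnit (weilT a ρ h) := by
  have h0 : ((Nat.card V : ℂ) * Nat.card (fixSp ρ h)) ≠ 0 :=
    mul_ne_zero (Nat.cast_ne_zero.2 Nat.card_pos.ne') (Nat.cast_ne_zero.2 Nat.card_pos.ne')
  refine IsUnit.of_mul_eq_one (((Nat.card V : ℂ) * Nat.card (fixSp ρ h))⁻¹ • weilT a ρ h⁻¹) ?_
  rw [mul_smul_comm, weilT_mul_inv ρ h2 ha hnd hi, smul_smul, inv_mul_cancel₀ h0, one_smul]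

theorem weilT_mul (h2 : (2 : ZMod p) ≠ 0) (ha : ∀ x, a x x = 0)
    (hnd : ∀ y, (∀ x, a x y = 0) → y = 0) (hi : InvForm ρ a) (g h : H) :
    ∃ c : ℂ, weilT a ρ g * weilT a ρ h = c • weilT a ρ (g * h) := by
  set X := weilT a ρ g * weilT a ρ h * weilT a ρ (g * h)⁻¹ with hX
  have hm : X ∈ _ := heis_mul_mem ha (heis_mul_mem ha (weilT_mem ρ ha g) (weilT_mem ρ ha h))
    (weilT_mem ρ ha (g * h)⁻¹)
  have hc : ∀ v, heis a v * X = X * heis a v := by
    intro v
    have : v = ρ g (ρ h (ρ (g * h)⁻¹ v)) := by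
      rw [← Module.End.mul_apply, ← map_mul, rep_inv_apply]
    conv_lhs => rw [this, hX, ← mul_assoc, ← mul_assoc, heis_mul_weilT ρ ha hi, mul_assoc _ (heis a _),
      heis_mul_weilT ρ ha hi, ← mul_assoc, mul_assoc _ (heis a _), heis_mul_weilT ρ ha hi,
      ← mul_assoc]
  have h1 := sum_heis_conj h2 ha hnd hm
  simp only [hc, mul_assoc, heis_mul_neg ha, mul_one, Finset.sum_const, Finset.card_univ] at h1
  have h3 := congrArg (· * weilT a ρ (g * h)) h1
  have h4 := weilT_mul_inv ρ h2 ha hnd hi (g * h)⁻¹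
  rw [inv_inv] at h4
  simp only [smul_mul_assoc, one_mul, hX, mul_assoc, h4, mul_smul_comm, mul_one,
    ← Nat.cast_smul_eq_nsmul ℂ, smul_smul] at h3
  have h0 : ((Fintype.card V : ℂ) * ((Nat.card V : ℂ) * Nat.card (fixSp ρ (g * h)⁻¹))) ≠ 0 :=
    mul_ne_zero (Nat.cast_ne_zero.2 Fintype.card_ne_zero)
      (mul_ne_zero (Nat.cast_ne_zero.2 Nat.card_pos.ne') (Nat.cast_ne_zero.2 Nat.card_pos.ne'))
  exact ⟨_, by rw [(eq_inv_smul_iff₀ h0).2 h3, smul_smul]⟩

theorem weilT_eq_smul (ha : ∀ x, a x x = 0) (hi : InvForm ρ a) (h : H) [Fintype (comSp ρ h)]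
    (hc : IsCompl (fixSp ρ h) (comSp ρ h)) :
    weilT a ρ h = (Nat.card (fixSp ρ h) : ℂ) •
      ∑ u : comSp ρ h, ZMod.stdAddChar (-a (ρ h u) u) • heis a (ρ h u - u) := by
  haveI := Fintype.ofFinite (fixSp ρ h)
  rw [weilT_eq ρ ha, sum_eq_sum_sum_of_isCompl hc, Nat.card_eq_fintype_card, ← Finset.card_univ,
    Nat.cast_smul_eq_nsmul, ← Finset.sum_const]
  refine Finset.sum_congr rfl fun c _ => Finset.sum_congr rfl fun r _ => ?_
  have h1 := (mem_fixSp ρ).1 c.2
  have h2 : a (ρ h r) c = 0 := by rw [← h1, hi, hi.com_fix ρ c.2 r.2]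
  simp only [map_add, h1, LinearMap.add_apply, ha, hi.fix_com ρ c.2 r.2, h2, zero_add,
    add_sub_add_left_eq_sub]

variable {M : Ideal AlgInt} [M.IsMaximal] [CharP (Res M) p]

theorem heis_comb_pow {ι : Type*} [Fintype ι] (c : ι → ZMod p) (y : ι → V) (f : V → ℂ)
    (hf : ∀ x, IsIntegral ℤ (f x)) (n : ℕ) :
    (∀ x, IsIntegral ℤ (((∑ i, ZMod.stdAddChar (c i) • heis a (y i)) ^ n) f x)) ∧
      ∑ x, red M (((∑ i, ZMod.stdAddChar (c i) • heis a (y i)) ^ n) f x) =
        (Fintype.card ι : Res M) ^ n * ∑ x, red M (f x) := by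
  induction n with
  | zero => simpa using hf
  | succ n ih =>
    rw [pow_succ', Module.End.mul_apply]
    generalize ((∑ i, ZMod.stdAddChar (c i) • heis a (y i)) ^ n) f = g at ih
    have hi : ∀ x i, IsIntegral ℤ (ZMod.stdAddChar (c i) *
        (ZMod.stdAddChar (a (y i) x) * g (x - y i))) := fun x i =>
      (isIntegral_stdAddChar _).mul ((isIntegral_stdAddChar _).mul (ih.1 _))
    simp only [LinearMap.sum_apply, LinearMap.smul_apply, Finset.sum_apply, Pi.smul_apply,
      heis_apply, smul_eq_mul]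
    refine ⟨fun x => IsIntegral.sum _ fun i _ => hi x i, ?_⟩
    rw [Finset.sum_congr rfl fun x _ => red_sum _ _ fun i _ => mem_locRing_of_isIntegral (hi x i),
      Finset.sum_comm, pow_succ', mul_assoc, ← ih.2, ← nsmul_eq_mul, ← Finset.card_univ,
      ← Finset.sum_const]
    refine Finset.sum_congr rfl fun i _ => ?_
    rw [← Equiv.sum_comp (Equiv.subRight (y i)) (fun x => red M (g x))]
    refine Finset.sum_congr rfl fun x _ => ?_
    rw [red_mul (mem_locRing_of_isIntegral (isIntegral_stdAddChar _)) (mem_locRing_of_isIntegral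
      ((isIntegral_stdAddChar _).mul (ih.1 _))), red_mul (mem_locRing_of_isIntegral
      (isIntegral_stdAddChar _)) (mem_locRing_of_isIntegral (ih.1 _)), red_stdAddChar,
      red_stdAddChar, one_mul, one_mul]
    rfl

omit [Fintype V] in
theorem hasGood_of_symp [Finite V] [Finite H] (hH : ¬ p ∣ Nat.card H) (h2 : (2 : ZMod p) ≠ 0)
    (ha : ∀ x, a x x = 0) (hnd : ∀ y, (∀ x, a x y = 0) → y = 0) (hi : InvForm ρ a) :
    HasGood M ρ := by
  classical
  haveI := Fintype.ofFinite V
  have hc := isCompl_fixSp ρ (fun h => hH ((CharP.cast_eq_zero_iff _ p _).1 h))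
  obtain ⟨μ, σ, hσ⟩ := exists_linearize (weilT a ρ) (isUnit_weilT ρ h2 ha hnd hi)
    (weilT_mul ρ h2 ha hnd hi) (by
      rw [Module.finrank_fintype_fun_eq_card, ← Nat.card_eq_fintype_card,
        card_eq_pow_zmod (p := p) (V := V)]
      exact (((Nat.Prime.coprime_iff_not_dvd hp.out).2 hH).pow_left _).symm)
  have hη := isChar_character σ
  have hV0 : (Nat.card V : ℂ) ≠ 0 := Nat.cast_ne_zero.2 Nat.card_pos.ne'
  have hC0 : ∀ h, (Nat.card (fixSp ρ h) : ℂ) ≠ 0 := fun h => Nat.cast_ne_zero.2 Nat.card_pos.ne'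
  have hCi : ∀ h, Nat.card (fixSp ρ h⁻¹) = Nat.card (fixSp ρ h) := fun h => by
    have := apply_inv_of_isChar (isChar_card_fixSp ρ) h
    simpa using this
  have hch : ∀ h, σ.character h = μ h * (Nat.card V * Nat.card (fixSp ρ h)) := fun h => by
    rw [Representation.character, hσ, map_smul, trace_weilT ρ ha, smul_eq_mul]
  have hμ : ∀ h, μ h * μ h⁻¹ * (Nat.card V * Nat.card (fixSp ρ h)) = 1 := fun h => by
    have h1 : σ h * σ h⁻¹ = 1 := by rw [← map_mul, mul_inv_cancel, map_one]
    rw [hσ, hσ, smul_mul_smul_comm, weilT_mul_inv ρ h2 ha hnd hi, smul_smul] at h1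
    exact smul_left_injective ℂ (one_ne_zero (α := Module.End ℂ (V → ℂ)))
      (h1.trans (one_smul _ _).symm)
  have hγ : ∀ h, μ h⁻¹ * Nat.card V * Nat.card (fixSp ρ h) = conj (σ.character h) := fun h => by
    rw [← apply_inv_of_isChar hη, hch, hCi, mul_assoc]
  have hγ' : ∀ h, μ h⁻¹ * Nat.card V = conj (σ.character h) / Nat.card (fixSp ρ h) := fun h => by
    rw [← hγ, mul_div_cancel_right₀ _ (hC0 h)]
  have key : ∀ h, IsIntegral ℤ ((μ h⁻¹ * Nat.card V) ^ Nat.card H) ∧
      red M ((μ h⁻¹ * Nat.card V) ^ Nat.card H) = (Nat.card (comSp ρ h) : Res M) ^ Nat.card H := by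
    intro h
    have h1 : ∑ u : comSp ρ h, ZMod.stdAddChar (-a (ρ h u) u) • heis a (ρ h u - u) =
        (μ h⁻¹ * Nat.card V) • σ h := by
      rw [hσ, weilT_eq_smul ρ ha hi h (hc h), smul_smul, smul_smul]
      convert (one_smul ℂ _).symm using 2
      rw [← hμ h]; ring
    have h3 := heis_comb_pow (a := a) (M := M) (fun u : comSp ρ h => -a (ρ h u) u)
      (fun u => ρ h u - u) (Pi.single 0 1) (fun x => by
        rw [Pi.single_apply]; split_ifs
        exacts [isIntegral_one, isIntegral_zero]) (Nat.card H)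
    rw [h1, smul_pow, ← map_pow, pow_card_eq_one', map_one] at h3
    simp only [LinearMap.smul_apply, Module.End.one_apply, Pi.smul_apply, smul_eq_mul,
      Pi.single_apply, mul_ite, mul_one, mul_zero, apply_ite (red M), red_zero, red_one,
      Finset.sum_ite_eq', Finset.mem_univ, if_true] at h3
    exact ⟨by simpa using h3.1 0, by rw [h3.2, Nat.card_eq_fintype_card (α := comSp ρ h)]⟩
  have hint : ∀ h, IsIntegral ℤ (μ h⁻¹ * Nat.card V) := fun h =>
    IsIntegral.of_pow Nat.card_pos (key h).1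
  refine ⟨fun h => μ h⁻¹ * Nat.card V, kgood_of_div ρ hH (intComb_of_isChar (isChar_conj hη))
    hγ hint (fun h => ?_) (fun h => ?_) ?_ fun h ⟨v, hv⟩ => ?_⟩
  · rw [hγ']
    exact (cm_of_isChar hη h).conj.div (cm_natCast _)
  · conv_lhs => rw [hγ' h, map_div₀, Complex.conj_conj, ← hγ' h, hch, Complex.conj_natCast]
    field_simp [hC0 h]
    linear_combination hμ h
  · rw [hγ', Representation.char_one, Module.finrank_fintype_fun_eq_card,
      ← Nat.card_eq_fintype_card, Complex.conj_natCast, div_eq_one_iff_eq (hC0 1)]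
    congr 1
    exact Nat.card_congr (Equiv.subtypeUnivEquiv fun x => (mem_fixSp ρ).2 (by simp)).symm
  · refine mem_locIdeal_of_pow_mem (mem_locRing_of_isIntegral (hint h)) (n := Nat.card H) ?_
    rw [← red_eq_zero_iff (mem_locRing_of_isIntegral (key h).1), (key h).2]
    haveI : Nontrivial (comSp ρ h) := ⟨⟨_, v, rfl⟩, 0, fun h0 => hv (by
      simpa [sub_eq_zero] using congrArg Subtype.val h0)⟩
    rw [(CharP.cast_eq_zero_iff _ p _).2 dvd_card_of_nontrivial, zero_pow Nat.card_pos.ne']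

omit [Fintype V] in
theorem exists_eq_sub_flip [Finite V] (ha : ∀ x, a x x = 0) :
    ∃ B : LinearMap.BilinForm (ZMod p) V, ∀ x y, a x y = B x y - B y x := by
  let b := Module.finBasis (ZMod p) V
  let B : LinearMap.BilinForm (ZMod p) V :=
    Matrix.toBilin b (Matrix.of fun i j => if i < j then a (b i) (b j) else 0)
  have hB : ∀ i j, B (b i) (b j) = if i < j then a (b i) (b j) else 0 := fun i j => by
    have := congrFun (congrFun (LinearMap.BilinForm.toMatrix_toBilin b
      (Matrix.of fun i j => if i < j then a (b i) (b j) else 0)) i) j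
    rwa [LinearMap.BilinForm.toMatrix_apply] at this
  have : a = B - B.flip := LinearMap.BilinForm.ext_basis b fun i j => by
    show _ = B (b i) (b j) - B (b j) (b i)
    rw [hB, hB]
    rcases lt_trichotomy i j with h | rfl | h
    · simp [h, h.asymm]
    · simp [ha]
    · simp [h, h.asymm, skew_of_alt ha (b i)]
  exact ⟨B, fun x y => by rw [this]; rfl⟩

omit [Fintype V] in
theorem hasGood_of_selfDual [Finite V] [Finite H] (hH : ¬ p ∣ Nat.card H)
    (B : LinearMap.BilinForm (ZMod p) V) (hB : InvForm ρ B) (hnd : B.Nondegenerate) :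
    HasGood M ρ := by
  classical
  haveI : NeZero (Nat.card H : ZMod p) := ⟨fun h => hH ((CharP.cast_eq_zero_iff _ p _).1 h)⟩
  obtain ⟨A, S, hA, hS, alt, sym, nd, dec, tr⟩ := sympOrth_of_nondegenerate p ρ B hB hnd
  have hker : ∀ C : LinearMap.BilinForm (ZMod p) V, InvForm ρ C →
      ∀ (g : H) ⦃u : V⦄, u ∈ LinearMap.ker C → ρ g u ∈ LinearMap.ker C := by
    intro C hC g u hu
    rw [LinearMap.mem_ker] at hu ⊢
    ext y
    rw [hC.left, hu]; rfl
  let U : Subrepresentation ρ := ⟨LinearMap.ker S, hker S hS⟩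
  let W : Subrepresentation ρ := ⟨LinearMap.ker A, hker A hA⟩
  have hc : IsCompl U.toSubmodule W.toSubmodule := by
    constructor
    · rw [Submodule.disjoint_def]
      exact fun x h1 h2 => nd x h2 h1
    · rw [codisjoint_iff, eq_top_iff]
      intro x _
      obtain ⟨u, w, hu, hw, rfl⟩ := dec x
      exact Submodule.add_mem_sup hu hw
  have ndU : ∀ y : U.toSubmodule, (∀ x : U.toSubmodule, A x y = 0) → y = 0 := by
    intro y hy
    refine Subtype.ext (nd y ?_ y.2)
    ext x
    obtain ⟨u, w, hu, hw, rfl⟩ := dec x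
    rw [skew_of_alt alt, map_add, LinearMap.add_apply, hy ⟨u, hu⟩, hw]; simp
  have ndW : ∀ y : W.toSubmodule, (∀ x : W.toSubmodule, S x y = 0) → y = 0 := by
    intro y hy
    refine Subtype.ext (nd y y.2 ?_)
    ext x
    obtain ⟨u, w, hu, hw, rfl⟩ := dec x
    rw [sym, map_add, LinearMap.add_apply, hy ⟨w, hw⟩, hu]; simp
  by_cases hp2 : p = 2
  · refine hasGood_of_isCompl U W hc ?_
      (hasGood_of_trivial fun g w => Subtype.ext (tr hp2 g w w.2))
    subst hp2
    haveI := Fintype.ofFinite H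
    have h2 : (2 : ZMod 2) = 0 := rfl
    let A' : LinearMap.BilinForm (ZMod 2) U.toSubmodule := A.domRestrict₁₂ _ _
    obtain ⟨B0, hB0⟩ := exists_eq_sub_flip (a := A') (fun x => alt x)
    refine hasGood_of_quad U.toRepresentation hH
      (fun x => ∑ h, B0 (U.toRepresentation h x) (U.toRepresentation h x)) A' (fun x y => ?_)
      (fun g x => ?_) ndU
    · have h1 : (Nat.card H : ZMod 2) = 1 := by
        exact ZMod.natCast_eq_one_iff_odd.2 (Nat.not_even_iff_odd.1 fun h => hH h.two_dvd)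
      have h3 : A' x y = ∑ h : H, A' (U.toRepresentation h x) (U.toRepresentation h y) := by
        have : ∀ h : H, A' (U.toRepresentation h x) (U.toRepresentation h y) = A' x y :=
          fun h => hA h x y
        simp only [this]
        rw [Finset.sum_const, Finset.card_univ, ← Nat.card_eq_fintype_card, nsmul_eq_mul, h1, one_mul]
      rw [h3, ← Finset.sum_add_distrib, ← Finset.sum_add_distrib]
      refine Finset.sum_congr rfl fun h _ => ?_
      simp only [map_add, LinearMap.add_apply, hB0]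
      linear_combination (B0 (U.toRepresentation h y) (U.toRepresentation h x)) * h2
    · simp only [← Module.End.mul_apply, ← map_mul]
      exact Equiv.sum_comp (Equiv.mulRight g)
        (fun h => B0 (U.toRepresentation h x) (U.toRepresentation h x))
  · have h2 : (2 : ZMod p) ≠ 0 := fun h => hp2 ((Nat.prime_dvd_prime_iff_eq hp.out Nat.prime_two).1
      ((CharP.cast_eq_zero_iff (ZMod p) p 2).1 (by exact_mod_cast h)))
    refine hasGood_of_isCompl U W hc (hasGood_of_symp (a := A.domRestrict₁₂ _ _) _ hH h2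
      (fun x => alt x) ndU fun g x y => hA g x y) ?_
    refine hasGood_of_quad W.toRepresentation hH (fun x => S x x)
      ((2 : ZMod p) • S.domRestrict₁₂ _ _) (fun x y => ?_) (fun g x => hS g x x) fun y hy =>
        ndW y fun x => (mul_eq_zero.1 (hy x)).resolve_left h2
    simp only [Submodule.coe_add, map_add, LinearMap.add_apply, LinearMap.smul_apply,
      LinearMap.domRestrict₁₂_apply, smul_eq_mul, sym y x]
    ring

end Cfsg.Agent.Ind
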